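import Cfsg.Agent.H997.FE.Defs
import Cfsg.Agent.H797.FQ.OC3
import Cfsg.Agent.KFacts.RgdAutFacts

/-!
# S2452, `F₄(2^f)`: the centre of `U` (helper187)

`θ = vec chevF4 4 47` the highest root, `σ = vec chevF4 4 44` the highest short root. In characteristic two `X_θ X_σ`
centralizes `U`.

* `comm_UU` : the elements of `X_θ X_σ` commute with the elements of `U`;
* `cen_of`, `cen_of'` : an element conjugate into `X_θ X_σ` is `2`-central (`Cen`);
* `not_dvd` : the index of the centralizer of such an element is odd.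
-/

set_option autoImplicit false
set_option linter.unusedSectionVars false

namespace Cfsg.Agent.H187.FE

open Subgroup CoxeterSystem Cfsg.Agent.ChevalleyStructure.CoxeterGeom Cfsg.Agent.Tits.Core
  Cfsg.Agent.Tits.Exchange Cfsg.Agent.Nodes.Reps Cfsg.Agent.Nodes.BNOf Cfsg.Agent.Nodes.StabComb
  Cfsg.Agent.Nodes.Bruhat Cfsg.Agent.Nodes.OppDec Cfsg.Agent.Nodes.LeviDec Cfsg.Agent.Nodes.NormX
  Cfsg.Agent.Nodes.Coroot Cfsg.Agent.Nodes.RGDChev Cfsg.Agent.KFacts.RgdPar Cfsg.Agent.KFacts.RgdTI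
  Cfsg.Agent.KFacts.RgdCent Cfsg.Agent.KFacts.RgdChevCoord Cfsg.Agent.Nodes.ChevCls
  Cfsg.Agent.OddHalf.NI.ModelChev Cfsg.Agent.H225.PPow Cfsg.Agent.Tits.Roots
open Cfsg.Lie Cfsg.Agent.ChevalleyStructure Cfsg.Agent.ChevalleyStructure.Elts
  Cfsg.Agent.ChevalleyStructure.RootVec Cfsg.Agent.ChevalleyStructure.NPerm
  Cfsg.Agent.ChevalleyStructure.CoxeterGeomTypes
open Cfsg.Agent.H701.F43.Cent (hF cF nroots)
open Cfsg.Agent.H797.FQ (e)
open Cfsg.Agent.H997.FE (UU Cen Z7)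

universe u

variable {K : Type u} [Field K]

/-- the numbers of the positive roots -/
theorem tab_pos : ∀ r < chevF4.nroots, (∀ i : Fin 4, 0 ≤ vec chevF4 4 r i) → 24 ≤ r := by decide +kernel

/-- the structure constants are even -/
theorem tab_even : ∀ r ∈ [44, 47], ∀ s < chevF4.nroots, 24 ≤ s → s ≠ r →
    s ≠ chevF4.neg r ∧ ∀ c ∈ chevF4.commTerms r s, (2 : ℤ) ∣ c.2.1 := by decide +kernel

theorem lt_of_mem {r : ℕ} (hr : r ∈ [44, 47]) : r < chevF4.nroots := by
  rw [nroots]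
  simp only [List.mem_cons, List.not_mem_nil, or_false] at hr
  omega

/-- the root elements -/
theorem comm_e (h2 : (2 : K) = 0) {r s : ℕ} (hr : r ∈ [44, 47]) (hs : s < chevF4.nroots) (h24 : 24 ≤ s) (a b : K) :
    ex hF s a * ex hF r b = ex hF r b * ex hF s a := by
  by_cases h : s = r
  · subst h
    rw [← ex_add hF, ← ex_add hF, add_comm]
  · obtain ⟨h1, h3⟩ := tab_even r hr s hs h24 h
    have h4 := ex_comm hF (lt_of_mem hr) hs h h1 b a
    rw [List.prod_eq_one, mul_one] at h4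
    · exact h4
    · intro x hx
      rw [List.mem_map] at hx
      obtain ⟨c, hc, rfl⟩ := hx
      obtain ⟨k, hk⟩ := h3 c hc
      rw [hk, Int.cast_mul, Int.cast_ofNat, h2, zero_mul, zero_mul, zero_mul, ex_zero]

theorem two_eq_zero [CharP K 2] : (2 : K) = 0 := by exact_mod_cast CharP.cast_eq_zero K 2

/-- `X_θ X_σ` centralizes `U` -/
theorem comm_UU [CharP K 2] {u v : ↥(chevF4.group K)} (hu : u ∈ Z7 K [44, 47]) (hv : v ∈ UU K) : u * v = v * u := by
  have key : Z7 K [44, 47] ≤ centralizer (UU K : Set ↥(chevF4.group K)) := RGD.Sup_le fun x hx => by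
    obtain ⟨r, hr, rfl⟩ := hx
    intro y hy
    obtain ⟨b, rfl⟩ := (mem_XX_vec hF (lt_of_mem hr)).1 hy
    have h2 : UU K ≤ centralizer ({ex hF r b} : Set ↥(chevF4.group K)) := RGD.Sup_le fun x hx => by
      obtain ⟨s, hs, rfl⟩ := (isRoot_iff hF cF x).1 hx.1
      intro z hz
      obtain ⟨a, rfl⟩ := (mem_XX_vec hF hs).1 hz
      rw [mem_centralizer_singleton_iff]
      exact comm_e two_eq_zero hr hs (tab_pos s hs hx.2) a b
    rw [mem_centralizer_iff]
    intro v hv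
    exact mem_centralizer_singleton_iff.1 (h2 hv)
  exact (mem_centralizer_iff.1 (key hu) v hv).symm

theorem tab_nonneg : ∀ r ∈ [44, 47], ∀ i : Fin 4, 0 ≤ vec chevF4 4 r i := by decide +kernel

theorem Z_le_UU : Z7 K [44, 47] ≤ UU K := RGD.Sup_le fun x hx => by
  obtain ⟨r, hr, rfl⟩ := hx
  exact RGD.le_Sup ⟨(isRoot_iff hF cF _).2 ⟨r, lt_of_mem hr, rfl⟩, tab_nonneg r hr⟩

/-- **(a)** -/
theorem cen_of [CharP K 2] {g u : ↥(chevF4.group K)} (h : g * u * g⁻¹ ∈ Z7 K [44, 47]) : Cen u :=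
  ⟨g, Z_le_UU h, fun _ hv => comm_UU h hv⟩

theorem sup_le_Z : XX chevF4 4 K (vec chevF4 4 47) ⊔ XX chevF4 4 K (vec chevF4 4 44) ≤ Z7 K [44, 47] :=
  sup_le (RGD.le_Sup ⟨47, by decide, rfl⟩) (RGD.le_Sup ⟨44, by decide, rfl⟩)

/-- the same with the supremum of the two root groups -/
theorem cen_of' [CharP K 2] {g u : ↥(chevF4.group K)}
    (h : g * u * g⁻¹ ∈ XX chevF4 4 K (vec chevF4 4 47) ⊔ XX chevF4 4 K (vec chevF4 4 44)) : Cen u :=
  cen_of (sup_le_Z h)

theorem Cen.conj {u : ↥(chevF4.group K)} (h : Cen u) (a : ↥(chevF4.group K)) : Cen (a * u * a⁻¹) := by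
  obtain ⟨g, h1⟩ := h
  refine ⟨g * a⁻¹, ?_⟩
  have h2 : g * a⁻¹ * (a * u * a⁻¹) * (g * a⁻¹)⁻¹ = g * u * g⁻¹ := by group
  rw [h2]
  exact h1

theorem cen_one : Cen (1 : ↥(chevF4.group K)) := by
  refine ⟨1, ?_, fun v _ => ?_⟩
  · rw [mul_one, inv_one, mul_one]
    exact one_mem _
  · rw [mul_one, inv_one, mul_one, one_mul, mul_one]

theorem index_conj {Y : Type*} [Group Y] (a u : Y) :
    (centralizer ({a * u * a⁻¹} : Set Y)).index = (centralizer ({u} : Set Y)).index := by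
  have h : centralizer ({a * u * a⁻¹} : Set Y) =
      (centralizer ({u} : Set Y)).map ((MulAut.conj a : Y ≃* Y) : Y →* Y) := by
    ext x
    rw [mem_centralizer_singleton_iff, mem_map]
    constructor
    · intro hx
      refine ⟨a⁻¹ * x * a, ?_, ?_⟩
      · rw [mem_centralizer_singleton_iff]
        calc a⁻¹ * x * a * u = a⁻¹ * (x * (a * u * a⁻¹)) * a := by group
          _ = a⁻¹ * ((a * u * a⁻¹) * x) * a := by rw [hx]
          _ = u * (a⁻¹ * x * a) := by group
      · show a * (a⁻¹ * x * a) * a⁻¹ = x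
        group
    · rintro ⟨y, hy, rfl⟩
      rw [mem_centralizer_singleton_iff] at hy
      show a * y * a⁻¹ * (a * u * a⁻¹) = a * u * a⁻¹ * (a * y * a⁻¹)
      calc _ = a * (y * u) * a⁻¹ := by group
        _ = a * (u * y) * a⁻¹ := by rw [hy]
        _ = _ := by group
  rw [h, index_map_equiv]

/-- **(b)** the centralizer of a `2`-central element has odd index -/
theorem not_dvd [Finite K] [CharP K 2] {u : ↥(chevF4.group K)} (hc : Cen u) :
    ¬ 2 ∣ (centralizer ({u} : Set ↥(chevF4.group K))).index := by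
  haveI : Fact (Nat.Prime 2) := ⟨Nat.prime_two⟩
  have hW := finite_W hF cF
  have hfin : Finite ↥(chevF4.group K) := inferInstance
  have hG := KFacts.RgdFilt.GG_eq_top (T := TT chevF4 K) (G1_eq_top hF (K := K) cF)
  have R := rgd (K := K) hF cF 2
  obtain ⟨a, -, hcm⟩ := hc
  obtain ⟨S, hS⟩ := KFacts.RgdAutFacts.exists_sylow R hG
  have h1 : (S : Subgroup ↥(chevF4.group K)) ≤ centralizer {a * u * a⁻¹} := by
    rw [hS]
    intro t ht
    rw [mem_centralizer_singleton_iff]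
    exact (hcm t ht).symm
  rw [← index_conj a u]
  intro hcon
  exact S.not_dvd_index (hcon.trans (index_dvd_of_le h1))

end Cfsg.Agent.H187.FE
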